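import Mathlib
import Cfsg.Prelude.Def_GeometricClasses
import Cfsg.Agent.LieClassical.OrthForms
/-!
# The standard quadratic forms: nondegeneracy of the polar form and Witt index of the minus form
-/

set_option autoImplicit false

namespace Cfsg.Agent.H957

open Module QuadraticMap Matrix
open Cfsg.Agent.LieClassical.OrthForms
open Cfsg.Agent.LieClassical.OrthCore (Nondeg)

section

variable {F : Type*} [Field F]

theorem nondegenerate_of_nondeg {V : Type*} [AddCommGroup V] [Module F V] {Q : QuadraticForm F V}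
    (h : Nondeg Q) : (polarBilin Q).Nondegenerate := by
  refine ⟨fun x hx => h x hx, fun x hx => h x fun y => ?_⟩
  rw [polar_comm]; exact hx y

theorem nondegenerate_plus (m : ℕ) : (polarBilin (plusForm m F)).Nondegenerate :=
  nondegenerate_of_nondeg (nondeg_plusForm m F)

theorem nondegenerate_minus [Finite F] (m : ℕ) (a b : F)
    (hab : ∀ z₁ z₂ : F, z₁ ^ 2 + a * z₁ * z₂ + b * z₂ ^ 2 = 0 → z₁ = 0 ∧ z₂ = 0) :
    (polarBilin (minusForm m F a b)).Nondegenerate :=
  nondegenerate_of_nondeg (nondeg_minusForm m F a b hab)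

/-- The polar form vanishes on a totally singular subspace. -/
theorem polar_of_ts {V : Type*} [AddCommGroup V] [Module F V] {Q : QuadraticForm F V} {W : Submodule F V}
    (hW : ∀ w ∈ W, Q w = 0) {u v : V} (hu : u ∈ W) (hv : v ∈ W) : polar Q u v = 0 := by
  rw [polar, hW _ (W.add_mem hu hv), hW _ hu, hW _ hv]; simp

/-- Totally singular subspaces of the minus-type form have dimension at most `m`. -/
theorem finrank_le_minus (m : ℕ) (a b : F)
    (hab : ∀ z₁ z₂ : F, z₁ ^ 2 + a * z₁ * z₂ + b * z₂ ^ 2 = 0 → z₁ = 0 ∧ z₂ = 0)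
    {W : Submodule F ((Fin m ⊕ Fin m) ⊕ Fin 2 → F)} (hW : ∀ w ∈ W, minusForm m F a b w = 0) :
    Module.finrank F W ≤ m := by
  let r : ((Fin m ⊕ Fin m) ⊕ Fin 2 → F) →ₗ[F] (Fin m → F) :=
    LinearMap.funLeft F F fun i => Sum.inl (Sum.inr i)
  let l : ((Fin m ⊕ Fin m) ⊕ Fin 2 → F) →ₗ[F] (Fin m → F) :=
    LinearMap.funLeft F F fun i => Sum.inl (Sum.inl i)
  set K : Submodule F W := LinearMap.ker (r.domRestrict W) with hK
  have hr : ∀ v : W, v ∈ K → ∀ i, (v : (Fin m ⊕ Fin m) ⊕ Fin 2 → F) (.inl (.inr i)) = 0 := by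
    intro v hv i
    exact congrFun (LinearMap.mem_ker.1 hv) i
  have hb : ∀ v : W, v ∈ K → ∀ i, (v : (Fin m ⊕ Fin m) ⊕ Fin 2 → F) (.inr i) = 0 := by
    intro v hv
    have h1 := hW v v.2
    rw [coe_minusForm, quadFormMinus_apply, Finset.sum_eq_zero, zero_add] at h1
    · obtain ⟨h2, h3⟩ := hab _ _ h1
      intro i
      fin_cases i
      · exact h2
      · exact h3
    · intro i _
      rw [hr v hv i, mul_zero]
  let lK : K →ₗ[F] (Fin m → F) := (l.domRestrict W).domRestrict K
  have hl : Function.Injective lK := by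
    rw [injective_iff_map_eq_zero]
    rintro ⟨v, hv⟩ h
    apply Subtype.ext
    apply Subtype.ext
    funext x
    rcases x with (i | i) | i
    · exact congrFun h i
    · exact hr v hv i
    · exact hb v hv i
  have h1 : Module.finrank F (LinearMap.range (r.domRestrict W)) + Module.finrank F K =
      Module.finrank F W := LinearMap.finrank_range_add_finrank_ker _
  have h2 : Module.finrank F (LinearMap.range lK) = Module.finrank F K :=
    LinearMap.finrank_range_of_inj hl
  have h3 := Subspace.finrank_add_finrank_dualAnnihilator_eq (LinearMap.range lK)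
  have h4 : (LinearMap.range (r.domRestrict W)).map (dotProductEquiv F (Fin m)).toLinearMap ≤
      (LinearMap.range lK).dualAnnihilator := by
    rintro _ ⟨_, ⟨w, rfl⟩, rfl⟩
    rw [Submodule.mem_dualAnnihilator]
    rintro _ ⟨v, rfl⟩
    have h5 := polar_of_ts hW v.1.2 w.2
    rw [polar_minusForm, hb v.1 v.2 0, hb v.1 v.2 1] at h5
    simp only [mul_zero, zero_mul, add_zero] at h5
    change (dotProductEquiv F (Fin m)) (r w) (l v.1) = 0
    rw [dotProductEquiv_apply_apply, dotProduct, ← h5]
    refine Finset.sum_congr rfl fun i _ => ?_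
    rw [hr v.1 v.2 i, mul_zero, add_zero, mul_comm]
    rfl
  have h5 := Submodule.finrank_mono h4
  have h7 : Module.finrank F ((LinearMap.range (r.domRestrict W)).map
      (dotProductEquiv F (Fin m)).toLinearMap) =
      Module.finrank F (LinearMap.range (r.domRestrict W)) :=
    LinearEquiv.finrank_map_eq (dotProductEquiv F (Fin m)) _
  have h6 : Module.finrank F (Fin m → F) = m := by simp
  omega

end

end Cfsg.Agent.H957
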