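import Mathlib
import Cfsg.Agent.H957.Points
import Cfsg.Agent.H957.Std
import Cfsg.Agent.ClassicalGeometry.OrthDickson
import Cfsg.Agent.ClassicalGeometry.TwoFamilies
/-!
# Involutions of orthogonal groups in characteristic two
-/

set_option autoImplicit false

namespace Cfsg.Agent.H957

open Module QuadraticMap Matrix
open scoped MatrixGroups

section

variable {F : Type*} [Field F] {V : Type*} [AddCommGroup V] [Module F V] [FiniteDimensional F V]

/-- Totally singular subspaces have at most half the dimension. -/
theorem two_mul_finrank_le_of_ts (Q : QuadraticForm F V) (hQ : (polarBilin Q).Nondegenerate)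
    {W : Submodule F V} (hW : ∀ w ∈ W, Q w = 0) : 2 * finrank F W ≤ finrank F V := by
  have h1 := LinearMap.BilinForm.finrank_orthogonal hQ W
  have h2 : W ≤ LinearMap.BilinForm.orthogonal (polarBilin Q) W := by
    intro w hw
    rw [LinearMap.BilinForm.mem_orthogonal_iff]
    intro u hu
    exact polar_of_ts hW hu hw
  have h3 := Submodule.finrank_mono h2
  have h4 := Submodule.finrank_le W
  omega

/-- An isometry `T` with `T ^ 2 = 1` in characteristic two whose fixed vectors are all singular: the
dimension of the space is twice an even number. -/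
theorem even_of_fixed_ts (h2 : (2 : F) = 0) (Q : QuadraticForm F V) (hQ : (polarBilin Q).Nondegenerate)
    (T : Module.End F V) (hT : ∀ v, Q (T v) = Q v) (hTT : T * T = 1)
    (hts : ∀ v, T v = v → Q v = 0) : ∃ m, finrank F V = 2 * (2 * m) := by
  have hK : ∀ v ∈ LinearMap.ker (T - 1), T v = v := by
    intro v hv
    rw [LinearMap.mem_ker, LinearMap.sub_apply, sub_eq_zero] at hv
    exact hv
  have hfix : ∀ v, T (T v - v) = T v - v := by
    intro v
    rw [map_sub, ← Module.End.mul_apply, hTT]
    have : (2 : F) • (T v - v) = 0 := by rw [h2, zero_smul]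
    rw [two_smul] at this
    rw [Module.End.one_apply, ← sub_eq_zero]
    calc v - T v - (T v - v) = -((T v - v) + (T v - v)) := by abel
      _ = 0 := by rw [this, neg_zero]
  have hsing : ∀ v, Q (T v - v) = 0 := fun v => hts _ (hfix v)
  have hpol : ∀ v, polar Q (T v - v) v = 0 := by
    intro v
    have h1 := hsing v
    have h3 : polar Q (T v - v) v = Q (T v - v + v) - Q (T v - v) - Q v := rfl
    rw [h1, sub_add_cancel, hT, sub_zero, sub_self] at h3
    exact h3
  let B : LinearMap.BilinForm F V := (polarBilin Q).comp (T - 1 : Module.End F V)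
  have hBapp : ∀ u v, B u v = polar Q (T u - u) v := fun u v => rfl
  have hBalt : B.IsAlt := fun v => by rw [hBapp]; exact hpol v
  obtain ⟨m, hm⟩ := ClassicalGeometry.TwoFamilies.exists_finrank_eq_ker_add B hBalt
  have hker : LinearMap.ker B = LinearMap.ker (T - 1) := by
    ext u
    rw [LinearMap.mem_ker, LinearMap.mem_ker]
    constructor
    · intro h
      apply hQ.1
      intro v
      have := LinearMap.congr_fun h v
      rw [hBapp] at this
      exact this
    · intro h
      apply LinearMap.ext
      intro v
      rw [hBapp]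
      have : T u - u = 0 := h
      rw [this]; simp
  rw [hker] at hm
  have h5 := finrank_ker_of_sq h2 T hTT
  have h6 := two_mul_finrank_le_of_ts Q hQ (W := LinearMap.ker (T - 1)) (fun w hw => hts w (hK w hw))
  exact ⟨m, by omega⟩

end

section

variable {ι : Type} [Fintype ι] [DecidableEq ι] {F : Type*} [Field F] [Finite F]

open ClassicalGeometry.OrthDickson ClassicalGeometry.OrthCharTwo ClassicalGeometry.Reflection

/-- In characteristic two an isometry whose fixed space has even codimension lies in `Ω`. -/
theorem mem_Omega_of_dsign (h2 : (2 : F) = 0) (Q : QuadraticForm F (ι → F)) (hQ : (polarBilin Q).Nondegenerate)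
    (h : Fintype.card ι ≠ 4) [Nonempty ι] (g : Cfsg.isometryGroup F (⇑Q)) (hg : dsign Q g = 1) :
    g ∈ Cfsg.Omega F (⇑Q) := by
  have hidx := index_commutator_two Q h2 hQ (Or.inr h)
  obtain ⟨u, hu⟩ : ∃ u, Q u ≠ 0 := by
    by_contra hcon
    push Not at hcon
    obtain ⟨i⟩ := ‹Nonempty ι›
    have h1 : (Pi.single i (1 : F) : ι → F) = 0 := by
      apply hQ.1
      intro y
      rw [polarBilin_apply_apply, polar, hcon, hcon, hcon]
      ring
    have h3 := congrFun h1 i
    simp at h3
  by_contra hcon
  have h3 : g * reflIso Q u hu ∈ commutator (Cfsg.isometryGroup F (⇑Q)) := by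
    rw [Subgroup.mul_mem_iff_of_index_two hidx]
    constructor
    · intro h; exact absurd h hcon
    · intro h'; exact absurd h' (refl_notMem_commutator Q hQ (Or.inr h) u hu)
  have h4 := dsign_eq_one_of_mem_commutator Q hQ (Or.inr h) _ h3
  rw [dsign_mul_of_gen Q hQ (Or.inr h), hg, dsign_refl Q hQ, one_mul] at h4
  exact absurd h4 (by decide)

end

section Explicit

variable {F : Type*} [Field F] {d : ℕ}

open Cfsg.Agent.LieClassical.OrthForms

/-- The map `(x, y) ↦ (x + y ∘ rev, y)`. -/
def uFun (v : Fin d ⊕ Fin d → F) : Fin d ⊕ Fin d → F :=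
  Sum.elim (fun i => v (.inl i) + v (.inr i.rev)) (fun i => v (.inr i))

/-- The involution `(x, y) ↦ (x + y ∘ rev, y)`, in characteristic two. -/
def uEquiv (h2 : (2 : F) = 0) : (Fin d ⊕ Fin d → F) ≃ₗ[F] (Fin d ⊕ Fin d → F) where
  toFun := uFun
  map_add' u v := by
    funext i
    rcases i with i | i <;> simp [uFun]; ring
  map_smul' c v := by
    funext i
    rcases i with i | i <;> simp [uFun]; ring
  invFun := uFun
  left_inv v := by
    have : ∀ a b : F, a + b + b = a := fun a b => by
      rw [add_assoc, ← two_mul, h2, zero_mul, add_zero]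
    funext i
    rcases i with i | i <;> simp [uFun, this]
  right_inv v := by
    have : ∀ a b : F, a + b + b = a := fun a b => by
      rw [add_assoc, ← two_mul, h2, zero_mul, add_zero]
    funext i
    rcases i with i | i <;> simp [uFun, this]

theorem uEquiv_apply (h2 : (2 : F) = 0) (v : Fin d ⊕ Fin d → F) : uEquiv h2 v = uFun v := rfl

theorem uEquiv_sq (h2 : (2 : F) = 0) : (uEquiv h2 : (Fin d ⊕ Fin d → F) ≃ₗ[F] (Fin d ⊕ Fin d → F)) ^ 2 = 1 := by
  apply LinearEquiv.ext
  intro v
  rw [pow_two]
  exact (uEquiv h2).left_inv v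

theorem uFun_fixed {v : Fin d ⊕ Fin d → F} (h : uFun v = v) (i : Fin d) : v (.inr i) = 0 := by
  have := congrFun h (.inl i.rev)
  simp only [uFun, Sum.elim_inl, Fin.rev_rev] at this
  simpa using this

theorem uFun_of_zero {v : Fin d ⊕ Fin d → F} (h : ∀ i, v (.inr i) = 0) : uFun v = v := by
  funext i
  rcases i with i | i <;> simp [uFun, h]

theorem plusForm_uFun (h2 : (2 : F) = 0) (hd : Even d) (v : Fin d ⊕ Fin d → F) :
    plusForm d F (uFun v) = plusForm d F v := by
  rw [coe_plusForm, quadFormPlus_apply, quadFormPlus_apply]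
  simp only [uFun, Sum.elim_inl, Sum.elim_inr, add_mul, Finset.sum_add_distrib]
  have : ∑ i : Fin d, v (.inr i.rev) * v (.inr i) = 0 := by
    refine Finset.sum_involution (fun i _ => i.rev) ?_ ?_ ?_ ?_
    · intro i _
      rw [Fin.rev_rev, mul_comm (v (.inr i)), ← two_mul, h2, zero_mul]
    · intro i _ _ h
      have := congrArg Fin.val h
      rw [Fin.val_rev] at this
      have hi := i.2
      obtain ⟨k, hk⟩ := hd
      omega
    · intro i _; exact Finset.mem_univ _
    · intro i _; exact Fin.rev_rev i
  rw [this, add_zero]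

end Explicit

end Cfsg.Agent.H957
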