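import Mathlib
import Cfsg.Agent.H955.QMinus
import Cfsg.Agent.H957.InvTwo
/-!
# Quadratic forms with a given polar form in characteristic two

* `isPlus_addSq_iff`: adding `f(a, ·)²` with `Q a ∉ {t² + t}` changes the type;
* `exists_invariant`: an isometry of the polar form preserves a form `Q + f(a, ·)²`;
* `exists_invariant_type`: it preserves one of the type of `Q` if `Q` is of plus type or
  `dim V / 2` is odd.
-/

set_option autoImplicit false

namespace Cfsg.Agent.H957

open Module QuadraticMap
open Cfsg.Agent.LieClassical.OrthCore (Nondeg)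
open Cfsg.Agent.H955 (res perp IsPlus nondeg_res_iff)

universe u v

section

variable {F : Type u} [Field F] {V : Type v} [AddCommGroup V] [Module F V]

/-- The form `Q + ℓ²`. -/
def addSq (Q : QuadraticForm F V) (ℓ : V →ₗ[F] F) : QuadraticForm F V := Q + QuadraticMap.linMulLin ℓ ℓ

theorem addSq_apply (Q : QuadraticForm F V) (ℓ : V →ₗ[F] F) (v : V) : addSq Q ℓ v = Q v + ℓ v * ℓ v := rfl

theorem polar_addSq [CharP F 2] (Q : QuadraticForm F V) (ℓ : V →ₗ[F] F) (u v : V) :
    polar (addSq Q ℓ) u v = polar Q u v := by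
  simp only [polar, addSq_apply, map_add]
  have h2 : (2 : F) = 0 := CharTwo.two_eq_zero
  linear_combination (ℓ u * ℓ v) * h2

theorem nondeg_addSq [CharP F 2] {Q : QuadraticForm F V} (hQ : Nondeg Q) (ℓ : V →ₗ[F] F) : Nondeg (addSq Q ℓ) := by
  intro x hx
  exact hQ x fun y => by rw [← polar_addSq Q ℓ]; exact hx y

theorem polar_self_two [CharP F 2] (Q : QuadraticForm F V) (v : V) : polar Q v v = 0 := by
  rw [QuadraticMap.polar_self, two_nsmul, CharTwo.add_self_eq_zero]

/-- A plane spanned by `a, b` with `f(a,b) = 1`, `Q a ≠ 0` is isotropic iff `Q a * Q b` has the form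
`u² + u`. -/
theorem isPlus_plane_iff [CharP F 2] (Q : QuadraticForm F V) {a b : V} (hab : polar Q a b = 1) (ha : Q a ≠ 0)
    (hfr : finrank F (Submodule.span F {a, b} : Submodule F V) = 2) :
    IsPlus (res Q (Submodule.span F {a, b})) ↔ ∃ t : F, t ^ 2 + t = Q a * Q b := by
  set W : Submodule F V := Submodule.span F {a, b} with hW
  have haW : a ∈ W := Submodule.subset_span (by simp)
  have hbW : b ∈ W := Submodule.subset_span (by simp)
  have hba : polar Q b a = 1 := by rw [polar_comm]; exact hab
  have hQst : ∀ s t : F, Q (s • a + t • b) = s * s * Q a + t * t * Q b + s * t := by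
    intro s t
    rw [QuadraticMap.map_add Q, QuadraticMap.map_smul, QuadraticMap.map_smul, polar_smul_left, polar_smul_right,
      hab]
    simp only [smul_eq_mul]; ring
  have hfd : FiniteDimensional F W := FiniteDimensional.of_finrank_pos (by omega)
  constructor
  · rintro ⟨U, hU, hUd⟩
    rw [hfr] at hUd
    have hUd' : finrank F U = 1 := by omega
    obtain ⟨⟨u, huU⟩, hu0, -⟩ := finrank_eq_one_iff'.1 hUd'
    have hu1 : Q (u : V) = 0 := hU u huU
    have hu2 : (u : V) ≠ 0 := fun h => hu0 (Subtype.ext (Subtype.ext h))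
    obtain ⟨s, t, hst⟩ := Submodule.mem_span_pair.1 u.2
    rw [← hst, hQst] at hu1
    have ht : t ≠ 0 := by
      rintro rfl
      have h1 : s * s * Q a = 0 := by linear_combination hu1
      have h2 : s = 0 := by simpa [ha] using h1
      apply hu2
      rw [← hst, h2]; simp
    refine ⟨s * Q a / t, ?_⟩
    have h2 : (2 : F) = 0 := CharTwo.two_eq_zero
    field_simp
    linear_combination hu1 - (t * t * Q b) * h2
  · rintro ⟨t, ht⟩
    let x : V := (t / Q a) • a + b
    have hxW : x ∈ W := W.add_mem (W.smul_mem _ haW) hbW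
    have hQx : Q x = 0 := by
      have := hQst (t / Q a) 1
      rw [one_smul] at this
      change Q x = _ at this
      rw [this]
      have h2 : (2 : F) = 0 := CharTwo.two_eq_zero
      field_simp
      linear_combination ht + (Q a * Q b) * h2
    have hx0 : x ≠ 0 := by
      intro h
      have h1 : polar Q a x = 1 := by
        rw [polar_add_right, polar_smul_right, polar_self_two, hab]; simp
      rw [h, polar_zero_right] at h1
      exact zero_ne_one h1
    refine ⟨Submodule.span F {⟨x, hxW⟩}, ?_, ?_⟩
    · intro u hu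
      obtain ⟨c, rfl⟩ := Submodule.mem_span_singleton.1 hu
      rw [QuadraticMap.map_smul]
      change (c * c) • Q x = 0
      rw [hQx, smul_zero]
    · rw [finrank_span_singleton (fun h => hx0 (congrArg Subtype.val h)), hfr]

variable [Finite F]

/-- Adding `f(a, ·)²` with `Q a` not of the form `t² + t` changes the type. -/
theorem isPlus_addSq_iff [CharP F 2] [FiniteDimensional F V] {Q : QuadraticForm F V} (hQ : Nondeg Q) (a : V)
    (ha : ∀ t : F, t ^ 2 + t ≠ Q a) (hd : Even (finrank F V)) :
    IsPlus (addSq Q (polarBilin Q a)) ↔ ¬ IsPlus Q := by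
  have ha0 : Q a ≠ 0 := fun h => ha 0 (by rw [h]; ring)
  have ha1 : a ≠ 0 := by rintro rfl; simp at ha0
  obtain ⟨b', hb'⟩ : ∃ y, polar Q a y ≠ 0 := by
    by_contra hcon
    push Not at hcon
    exact ha1 (hQ a hcon)
  obtain ⟨b, hab⟩ : ∃ b, polar Q a b = 1 :=
    ⟨(polar Q a b')⁻¹ • b', by rw [polar_smul_right, smul_eq_mul, inv_mul_cancel₀ hb']⟩
  have hba : polar Q b a = 1 := by rw [polar_comm]; exact hab
  set W : Submodule F V := Submodule.span F {a, b} with hW
  have haW : a ∈ W := Submodule.subset_span (by simp)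
  have hbW : b ∈ W := Submodule.subset_span (by simp)
  have hli : LinearIndependent F ![a, b] := by
    rw [LinearIndependent.pair_iff]
    intro s t hst
    have h1 : polar Q a (s • a + t • b) = t := by
      rw [polar_add_right, polar_smul_right, polar_smul_right, polar_self_two, hab]; simp
    have h2 : polar Q b (s • a + t • b) = s := by
      rw [polar_add_right, polar_smul_right, polar_smul_right, polar_self_two, hba]; simp
    rw [hst, polar_zero_right] at h1 h2
    exact ⟨h2.symm, h1.symm⟩
  have hfr : finrank F W = 2 := by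
    have := finrank_span_eq_card hli
    rw [Matrix.range_cons_cons_empty] at this
    rw [hW]
    simpa using this
  set R := addSq Q (polarBilin Q a) with hR
  have hRpol : ∀ u v, polar R u v = polar Q u v := polar_addSq Q _
  have hRn : Nondeg R := nondeg_addSq hQ _
  have hWn : Nondeg (res Q W) := by
    rw [nondeg_res_iff]
    intro x hx hxy
    obtain ⟨s, t, rfl⟩ := Submodule.mem_span_pair.1 hx
    have h1 := hxy a haW
    have h2 := hxy b hbW
    rw [polar_add_left, polar_smul_left, polar_smul_left, polar_self_two, hba] at h1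
    rw [polar_add_left, polar_smul_left, polar_smul_left, polar_self_two, hab] at h2
    have h1' : t = 0 := by simpa using h1
    have h2' : s = 0 := by simpa using h2
    rw [h1', h2']; simp
  have hWnR : Nondeg (res R W) := by
    rw [nondeg_res_iff] at hWn ⊢
    intro x hx hxy
    exact hWn x hx fun y hy => by rw [← hRpol]; exact hxy y hy
  rw [H955.isPlus_iff_perp hRn hWnR hd (by rw [hfr]; exact even_two),
    H955.isPlus_iff_perp hQ hWn hd (by rw [hfr]; exact even_two)]
  have hperp : perp R W = perp Q W := by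
    ext v
    rw [H955.mem_perp, H955.mem_perp]
    exact forall₂_congr fun w _ => by rw [hRpol]
  have hperpPlus : IsPlus (res R (perp R W)) ↔ IsPlus (res Q (perp Q W)) := by
    refine H955.isPlus_iff_of_equiv (LinearEquiv.ofEq _ _ hperp) fun v => ?_
    change Q (v : V) = Q (v : V) + polarBilin Q a (v : V) * polarBilin Q a (v : V)
    have : polarBilin Q a (v : V) = 0 := by
      rw [polarBilin_apply_apply, ← hRpol]
      exact v.2 a haW
    rw [this]; ring
  have hRa : R a = Q a := by
    rw [hR, addSq_apply, polarBilin_apply_apply, polar_self_two]; ring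
  have hRb : R b = Q b + 1 := by
    rw [hR, addSq_apply, polarBilin_apply_apply, hab]; ring
  have hplane : IsPlus (res R W) ↔ ¬ IsPlus (res Q W) := by
    rw [isPlus_plane_iff R (by rw [hRpol]; exact hab) (by rw [hRa]; exact ha0) hfr,
      isPlus_plane_iff Q hab ha0 hfr, hRa, hRb]
    constructor
    · rintro ⟨t, ht⟩ ⟨s, hs⟩
      apply ha (t + s)
      have h2 : (2 : F) = 0 := CharTwo.two_eq_zero
      linear_combination ht + hs + (s * t + Q a * Q b) * h2
    · intro h
      push Not at h
      obtain ⟨t, ht⟩ := H955.exists_artin_schreier ha h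
      exact ⟨t, by rw [ht]; ring⟩
  rw [hperpPlus, hplane]
  tauto

/-- An isometry of the polar form preserves some quadratic form with this polar form. -/
theorem exists_invariant [CharP F 2] [FiniteDimensional F V] (Q : QuadraticForm F V)
    (x : Module.End F V) (hx : ∀ u v, polar Q (x u) (x v) = polar Q u v) :
    ∃ ℓ : V →ₗ[F] F, ∀ v, addSq Q ℓ (x v) = addSq Q ℓ v := by
  have h2 : (2 : F) = 0 := CharTwo.two_eq_zero
  have : PerfectRing F 2 := PerfectRing.ofFiniteOfIsReduced 2 F
  let φ : V → F := fun v => Q (x v) + Q v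
  have hφadd : ∀ u v, φ (u + v) = φ u + φ v := by
    intro u v
    simp only [φ, map_add]
    rw [QuadraticMap.map_add Q, QuadraticMap.map_add Q, hx]
    linear_combination (polar Q u v) * h2
  have hφsmul : ∀ (c : F) v, φ (c • v) = c ^ 2 * φ v := by
    intro c v
    simp only [φ, map_smul]
    rw [QuadraticMap.map_smul, QuadraticMap.map_smul]
    simp only [smul_eq_mul]; ring
  let σ := (frobeniusEquiv F 2).symm
  have hσ : ∀ c : F, σ c * σ c = c := by
    intro c
    rw [← pow_two]
    exact frobeniusEquiv_symm_pow_p F 2 c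
  have hσ2 : ∀ c : F, σ (c ^ 2) = c := fun c => eq_of_sq_eq h2 (by rw [hσ]; ring)
  let ψ : V →ₗ[F] F :=
    { toFun := fun v => σ (φ v)
      map_add' := fun u v => by rw [hφadd, map_add]
      map_smul' := fun c v => by rw [hφsmul, map_mul, hσ2, RingHom.id_apply, smul_eq_mul] }
  have hψ : ∀ v, ψ v * ψ v = φ v := fun v => hσ (φ v)
  have hker : ψ ∈ (LinearMap.ker (x + 1)).dualAnnihilator := by
    rw [Submodule.mem_dualAnnihilator]
    intro w hw
    rw [LinearMap.mem_ker, LinearMap.add_apply, Module.End.one_apply] at hw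
    have hxw : x w = w := by
      rw [eq_neg_of_add_eq_zero_left hw]
      have : (2 : F) • w = 0 := by rw [h2, zero_smul]
      rw [two_smul] at this
      exact (eq_neg_of_add_eq_zero_left this).symm
    have : φ w = 0 := by
      simp only [φ, hxw]; linear_combination (Q w) * h2
    have h3 := hψ w
    rw [this] at h3
    exact mul_self_eq_zero.1 h3
  rw [← LinearMap.range_dualMap_eq_dualAnnihilator_ker] at hker
  obtain ⟨μ, hμ⟩ := hker
  refine ⟨μ, fun v => ?_⟩
  have h3 : μ (x v) + μ v = ψ v := by
    rw [← hμ]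
    simp [LinearMap.dualMap_apply]
  have h4 := hψ v
  rw [addSq_apply, addSq_apply]
  simp only [φ] at h4
  have h5 : ψ v = μ (x v) + μ v := h3.symm
  rw [h5] at h4
  linear_combination h4 + (Q (x v) - μ v * μ v - μ (x v) * μ v) * h2

/-- The invariant form can be chosen of the type of `Q` if `Q` is of plus type or `dim V / 2` is odd. -/
theorem exists_invariant_type [CharP F 2] [FiniteDimensional F V] {Q : QuadraticForm F V} (hQ : Nondeg Q)
    {d : ℕ} (hfr : finrank F V = 2 * d)
    (x : Module.End F V) (hxx : x * x = 1) (hx : ∀ u v, polar Q (x u) (x v) = polar Q u v)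
    (h : IsPlus Q ∨ Odd d) :
    ∃ R : QuadraticForm F V, (∀ u v, polar R u v = polar Q u v) ∧ (∀ v, R (x v) = R v) ∧
      (IsPlus R ↔ IsPlus Q) := by
  have h2 : (2 : F) = 0 := CharTwo.two_eq_zero
  obtain ⟨ℓ, hℓ⟩ := exists_invariant Q x hx
  set R := addSq Q ℓ with hR
  have hRpol : ∀ u v, polar R u v = polar Q u v := polar_addSq Q _
  have hRn : Nondeg R := nondeg_addSq hQ _
  by_cases hRQ : IsPlus R ↔ IsPlus Q
  · exact ⟨R, hRpol, hℓ, hRQ⟩
  -- a fixed vector with `R a ≠ 0`
  obtain ⟨a, hxa, hRa⟩ : ∃ a, x a = a ∧ R a ≠ 0 := by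
    by_contra hcon
    push Not at hcon
    have hRn' := nondegenerate_of_nondeg hRn
    obtain ⟨m, hm⟩ := even_of_fixed_ts h2 R hRn' x hℓ hxx hcon
    have hdim := finrank_ker_of_sq h2 x hxx
    have hplusR : IsPlus R := by
      refine H955.isPlus_of_le hRn (U := LinearMap.ker (x - 1)) ?_ hdim
      intro u hu
      rw [LinearMap.mem_ker, LinearMap.sub_apply, sub_eq_zero] at hu
      exact hcon u hu
    rcases h with h | h
    · exact hRQ ⟨fun _ => h, fun _ => hplusR⟩
    · obtain ⟨k, hk⟩ := h
      omega
  obtain ⟨c, hc⟩ : ∃ c : F, ∀ t : F, t ^ 2 + t ≠ c := by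
    by_contra hcon
    push Not at hcon
    have hinj : Function.Injective (fun t : F => t ^ 2 + t) := Finite.injective_iff_surjective.2 hcon
    have : (0 : F) = 1 := hinj (by
      change (0 : F) ^ 2 + 0 = 1 ^ 2 + 1
      linear_combination (-1) * h2)
    exact zero_ne_one this
  obtain ⟨s, hs⟩ := exists_sq h2 (c / R a)
  have hRsa : R (s • a) = c := by
    rw [QuadraticMap.map_smul, smul_eq_mul, hs, div_mul_cancel₀ _ hRa]
  have hflip := isPlus_addSq_iff hRn (s • a) (by rw [hRsa]; exact hc) (by rw [hfr]; exact even_two_mul d)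
  refine ⟨addSq R (polarBilin R (s • a)), fun u v => by rw [polar_addSq, hRpol], fun v => ?_, ?_⟩
  · have hxsa : x (s • a) = s • a := by rw [map_smul, hxa]
    have : polarBilin R (s • a) (x v) = polarBilin R (s • a) v := by
      rw [polarBilin_apply_apply, polarBilin_apply_apply]
      conv_lhs => rw [← hxsa]
      rw [hRpol, hRpol, hx]
    change R (x v) + polarBilin R (s • a) (x v) * polarBilin R (s • a) (x v) =
      R v + polarBilin R (s • a) v * polarBilin R (s • a) v
    rw [this, hℓ]
  · rw [hflip]
    tauto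

end

end Cfsg.Agent.H957
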