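import Mathlib

/-!
# Arithmetic of the criterion for totally singular subspaces, minus type
(adapted from helper954's `H954/TSArith.lean`)
-/

set_option autoImplicit false

namespace Cfsg.Agent.H957.TSMinus

/-- sufficiency, minus type, `i` even -/
theorem arith_suff_minus {i t d m A : ℕ} (hi : 2 ≤ i) (he : Even i)
    (hcrit : t + 2 * (m / i) ≤ 2 * d / i ∧
      ((2 * (m % i) ≤ i ∧ 2 * d % i = 0 ∧ Even (2 * d / i) ∧ t + 2 * (m / i) < 2 * d / i) ∨
        (2 * (m % i) ≤ 2 * d % i ∧ Odd (2 * d / i)) ∨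
        (2 * (m % i) < 2 * d % i ∧ Even (2 * d / i))))
    (hA : i * A ≤ 2 * d) (hA2 : i * A = 2 * d → Odd A) :
    ∃ b w, b ≤ (A + 1 - t) / 2 ∧ m = i * b + w ∧ 2 * w + i * A + 2 * ((A + 1) % 2) ≤ 2 * d := by
  have hi0 : 0 < i := by omega
  have hm := Nat.div_add_mod m i
  have hn := Nat.div_add_mod (2 * d) i
  have hl := Nat.mod_lt m hi0
  have hs := Nat.mod_lt (2 * d) hi0
  have hsev : Even (2 * d % i) := by
    obtain ⟨j, hj⟩ := he
    have h1 : i * (2 * d / i) = 2 * (j * (2 * d / i)) := by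
      generalize 2 * d / i = z
      rw [hj]; ring
    exact ⟨d - j * (2 * d / i), by omega⟩
  set m' := m / i with hm'
  set l := m % i with hl'
  set n' := 2 * d / i with hn'
  set s := 2 * d % i with hs'
  obtain ⟨s2, hs2⟩ := hsev
  have hAn : A ≤ n' := by
    rw [hn', Nat.le_div_iff_mul_le hi0, mul_comm]; exact hA
  obtain ⟨a, ha⟩ := Nat.exists_eq_add_of_le hAn
  obtain ⟨e, he'⟩ := Nat.exists_eq_add_of_le hcrit.1
  have hia : i * n' = i * A + i * a := by rw [ha]; ring
  -- multiples of `i`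
  have hmul : ∀ k : ℕ, k = 0 ∨ (k = 1 ∧ i * k = i) ∨ (2 ≤ k ∧ 2 * i ≤ i * k) := by
    intro k
    rcases Nat.lt_or_ge k 1 with h | h
    · left; omega
    · rcases Nat.lt_or_ge k 2 with h2 | h2
      · right; left
        have : k = 1 := by omega
        subst this
        exact ⟨rfl, mul_one i⟩
      · right; right
        refine ⟨h2, ?_⟩
        rw [mul_comm 2 i]
        exact Nat.mul_le_mul_left i h2
  by_cases hu : m' ≤ (A + 1 - t) / 2
  · refine ⟨m', l, hu, hm.symm, ?_⟩
    rcases hcrit.2 with ⟨c1, c2, c3, c4⟩ | ⟨c1, c2⟩ | ⟨c1, c2⟩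
    · obtain ⟨k, hk⟩ := c3
      rcases hmul a with h | ⟨h, h'⟩ | ⟨h, h'⟩
      · -- `a = 0`
        exfalso
        have h1 : i * A = 2 * d := by
          rw [h, add_zero] at ha
          rw [← ha]; omega
        obtain ⟨k', hk'⟩ := hA2 h1
        omega
      · have : (A + 1) % 2 = 0 := by omega
        omega
      · have : (A + 1) % 2 ≤ 1 := by omega
        omega
    · obtain ⟨k, hk⟩ := c2
      rcases hmul a with h | ⟨h, h'⟩ | ⟨h, h'⟩
      · have h1 : (A + 1) % 2 = 0 := by omega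
        have h2 : i * a = 0 := by rw [h, mul_zero]
        omega
      · have : (A + 1) % 2 ≤ 1 := by omega
        omega
      · have : (A + 1) % 2 ≤ 1 := by omega
        omega
    · have : (A + 1) % 2 ≤ 1 := by omega
      have : 0 ≤ i * a := Nat.zero_le _
      omega
  · push Not at hu
    obtain ⟨u, hu'⟩ : ∃ u, m' = (A + 1 - t) / 2 + u := ⟨m' - (A + 1 - t) / 2, by omega⟩
    obtain ⟨κ, hκ⟩ : ∃ κ, a = 2 * u + e + κ := ⟨a - (2 * u + e), by omega⟩
    have hκ2 : (κ + A + t) % 2 = 0 := by omega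
    have hia2 : i * a = 2 * (i * u) + i * e + i * κ := by rw [hκ]; ring
    refine ⟨(A + 1 - t) / 2, i * u + l, le_rfl, ?_, ?_⟩
    · rw [← hm, hu']; ring
    · rcases hcrit.2 with ⟨c1, c2, c3, c4⟩ | ⟨c1, c2⟩ | ⟨c1, c2⟩
      · obtain ⟨k, hk⟩ := c3
        rcases hmul e with h | ⟨h, h'⟩ | ⟨h, h'⟩
        · omega
        · rcases hmul κ with g | ⟨g, g'⟩ | ⟨g, g'⟩
          · have h3 : (A + 1) % 2 = 0 := by omega
            have h4 : i * κ = 0 := by rw [g, mul_zero]
            omega
          · have : (A + 1) % 2 ≤ 1 := by omega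
            omega
          · have : (A + 1) % 2 ≤ 1 := by omega
            omega
        · have : (A + 1) % 2 ≤ 1 := by omega
          omega
      · obtain ⟨k, hk⟩ := c2
        rcases hmul e with h | ⟨h, h'⟩ | ⟨h, h'⟩
        · rcases hmul κ with g | ⟨g, g'⟩ | ⟨g, g'⟩
          · have h3 : (A + 1) % 2 = 0 := by omega
            have h4 : i * κ = 0 := by rw [g, mul_zero]
            omega
          · have : (A + 1) % 2 ≤ 1 := by omega
            omega
          · have : (A + 1) % 2 ≤ 1 := by omega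
            omega
        · have : (A + 1) % 2 ≤ 1 := by omega
          omega
        · have : (A + 1) % 2 ≤ 1 := by omega
          omega
      · have : (A + 1) % 2 ≤ 1 := by omega
        omega

/-- necessity, minus type, `i` even -/
theorem arith_nec_minus {i t d m : ℕ} (hi : 2 ≤ i) (he : Even i) (him : i ≤ m) (hmd : m + 1 ≤ d)
    (H : ∀ A, 1 ≤ A → (i * A < 2 * d ∨ (i * A = 2 * d ∧ Odd A)) →
      ∃ b w, b ≤ (A + 1 - t) / 2 ∧ m = i * b + w ∧ 2 * w + i * A + 2 * ((A + 1) % 2) ≤ 2 * d) :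
    t + 2 * (m / i) ≤ 2 * d / i ∧
      ((2 * (m % i) ≤ i ∧ 2 * d % i = 0 ∧ Even (2 * d / i) ∧ t + 2 * (m / i) < 2 * d / i) ∨
        (2 * (m % i) ≤ 2 * d % i ∧ Odd (2 * d / i)) ∨
        (2 * (m % i) < 2 * d % i ∧ Even (2 * d / i))) := by
  have hi0 : 0 < i := by omega
  have hm := Nat.div_add_mod m i
  have hn := Nat.div_add_mod (2 * d) i
  have hl := Nat.mod_lt m hi0
  have hs := Nat.mod_lt (2 * d) hi0
  have hsev : Even (2 * d % i) := by
    obtain ⟨j, hj⟩ := he
    have h1 : i * (2 * d / i) = 2 * (j * (2 * d / i)) := by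
      generalize 2 * d / i = z
      rw [hj]; ring
    exact ⟨d - j * (2 * d / i), by omega⟩
  have hm'1 : 1 ≤ m / i := by rw [Nat.le_div_iff_mul_le hi0]; omega
  have hn'2 : 2 ≤ 2 * d / i := by rw [Nat.le_div_iff_mul_le hi0]; omega
  set m' := m / i with hm'
  set l := m % i with hl'
  set n' := 2 * d / i with hn'
  set s := 2 * d % i with hs'
  obtain ⟨s2, hs2⟩ := hsev
  -- the general step
  have key : ∀ A a, 1 ≤ A → A + a = n' → (a = 0 → s = 0 → Odd A) → a ≤ 2 → (a = 2 → s = 0 ∧ (A + 1) % 2 = 1) →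
      m' ≤ (A + 1 - t) / 2 ∧ 2 * l + 2 * ((A + 1) % 2) ≤ i * a + s := by
    intro A a hA1 hAa h0 h2 h3
    have hiA : i * n' = i * A + i * a := by rw [← hAa]; ring
    have hadm : i * A < 2 * d ∨ (i * A = 2 * d ∧ Odd A) := by
      rcases Nat.eq_zero_or_pos a with ha | ha
      · rcases Nat.eq_zero_or_pos s with hs0 | hs0
        · right
          refine ⟨?_, h0 ha hs0⟩
          have : i * a = 0 := by rw [ha, mul_zero]
          omega
        · left
          have : i * a = 0 := by rw [ha, mul_zero]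
          omega
      · left
        have : i * 1 ≤ i * a := Nat.mul_le_mul_left i ha
        omega
    obtain ⟨b, w, hb, hmw, hw⟩ := H A hA1 hadm
    have hbm : b ≤ m' := by
      rw [hm', Nat.le_div_iff_mul_le hi0, mul_comm]; omega
    obtain ⟨u, hu⟩ := Nat.exists_eq_add_of_le hbm
    have hiu : i * m' = i * b + i * u := by rw [hu]; ring
    have hw' : w = i * u + l := by omega
    have hu0 : u = 0 := by
      by_contra hne
      have h4 : i * 1 ≤ i * u := Nat.mul_le_mul_left i (Nat.one_le_iff_ne_zero.2 hne)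
      rcases Nat.lt_or_ge a 2 with ha | ha
      · have h5 : i * a ≤ i * 1 := Nat.mul_le_mul_left i (by omega)
        omega
      · have ha2 : a = 2 := by omega
        obtain ⟨h6, h7⟩ := h3 ha2
        have h5 : i * a = 2 * i := by rw [ha2, mul_comm]
        omega
    refine ⟨by omega, ?_⟩
    have : i * u = 0 := by rw [hu0, mul_zero]
    omega
  rcases (Nat.even_or_odd n').symm with hev | hodd
  · obtain ⟨k, hk⟩ := hev
    obtain ⟨k1, k2⟩ := key n' 0 (by omega) rfl (fun _ _ => ⟨k, hk⟩) (by omega) (fun h => by omega)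
    obtain ⟨k3, k4⟩ := key (n' - 1) 1 (by omega) (by omega) (fun h => by omega) (by omega) (fun h => by omega)
    refine ⟨by omega, Or.inr (Or.inl ⟨by omega, ⟨k, hk⟩⟩)⟩
  · obtain ⟨k, hk⟩ := hodd
    obtain ⟨k3, k4⟩ := key (n' - 1) 1 (by omega) (by omega) (fun h => by omega) (by omega) (fun h => by omega)
    refine ⟨by omega, ?_⟩
    rcases Nat.eq_zero_or_pos s with hs0 | hs0
    · have hn2 : n' ≠ 2 := by
        intro h
        have : i * n' = 2 * i := by rw [h, mul_comm]
        omega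
      obtain ⟨k5, k6⟩ := key (n' - 2) 2 (by omega) (by omega) (fun h => by omega) (by omega)
        (fun h => ⟨hs0, by omega⟩)
      left
      refine ⟨by omega, hs0, ⟨k, hk⟩, by omega⟩
    · obtain ⟨k1, k2⟩ := key n' 0 (by omega) rfl (fun _ h => by omega) (by omega) (fun h => by omega)
      right; right
      exact ⟨by omega, ⟨k, hk⟩⟩

end Cfsg.Agent.H957.TSMinus
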