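import Cfsg.Agent.H954.TSing9
import Cfsg.Agent.H957.TSArithMinus

/-!
# Totally singular `m`-spaces, minus type, `r` odd

The analogue for minus type of helper954's `H954/TSing10.lean`, with the same tools.
-/

set_option autoImplicit false

namespace Cfsg.Agent.H957.TSMinus

open Module QuadraticMap Polynomial Cfsg.Agent.LieClassical.OrthCore Cfsg.Agent.H955 Cfsg.Agent.H954.TSing

universe u v w

variable {F : Type u} [Field F] [Fintype F] {r : ℕ} [hrp : Fact r.Prime]
  {V : Type v} [AddCommGroup V] [Module F V] [FiniteDimensional F V] {Q : QuadraticForm F V}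

/-- Totally singular subspaces in spaces of even dimension. -/
theorem exists_ts_of_lt (hQ : Nondeg Q) {d m : ℕ} (hd : finrank F V = 2 * d) (hm : m + 1 ≤ d) :
    ∃ W : Submodule F V, finrank F W = m ∧ ∀ w ∈ W, Q w = 0 := by
  obtain ⟨W, -, hW, -, hWd⟩ := exists_ts_type (Q := Q) (U := ⊤)
    (nondeg_of_equiv (Submodule.topEquiv (R := F) (M := V)).symm (fun v => rfl) hQ)
    (by rw [finrank_top, hd]; exact ⟨d, by omega⟩)
  rw [finrank_top, hd] at hWd
  obtain ⟨W', hW', hW'd⟩ := H951.exists_sub W (a := m) (by omega)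
  exact ⟨W', hW'd, fun w hw => hW w (hW' hw)⟩

/-- **minus type, `r` odd** -/
theorem main_minus (h2 : 2 < r) (hr : (r : F) ≠ 0) (hQ : Nondeg Q) {d m : ℕ} (hd : finrank F V = 2 * d)
    (hP : ¬ IsPlus Q) (hmd : m + 1 ≤ d) (hdvd : r ∣ Nat.card (TSm Q m)) {i c : ℕ}
    (hi : i = orderOf (Fintype.card F : ZMod r)) (hc : c = if Even i then i else 2 * i) :
    (∀ T ∈ O Q, T ^ r = 1 → T ≠ 1 → ∃ W ∈ TSm Q m, ∀ w ∈ W, T w ∈ W) ↔
    ((Odd i ∧ i ≤ m ∧ ((2 * d) % c = 0 ∨ 2 * (m % i) < (2 * d) % c)) ∨
     (Even i ∧ i ≤ m ∧ (r - 1) / i + 2 * (m / i) ≤ (2 * d) / i ∧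
       ((2 * (m % i) ≤ i ∧ (2 * d) % c = 0 ∧ Even ((2 * d) / i) ∧ (r - 1) / i + 2 * (m / i) < (2 * d) / i) ∨
        (2 * (m % i) ≤ (2 * d) % c ∧ Odd ((2 * d) / i)) ∨
        (2 * (m % i) < (2 * d) % c ∧ Even ((2 * d) / i))))) := by
  have hi0 : 0 < i := by rw [hi]; exact H951.ord_pos (F := F) hr
  have hev : Even (finrank F V) := ⟨d, by omega⟩
  -- the fixed space
  have hfix : ∀ (T : V ≃ₗ[F] V), T ∈ O Q → T ^ r = 1 → Nondeg (res Q (fixS T)) := by
    intro T hT hTr
    have := nondeg_fx (x := (T : Module.End F V)) hQ (fun v => hT v) hr (coe_pow_eq_one hTr)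
    rwa [fx_coe] at this
  constructor
  · intro H
    have him : i ≤ m := by
      rw [hi]
      refine ord_le hQ hr hdvd fun T hT hTr => ?_
      by_cases h1 : T = 1
      · subst h1
        obtain ⟨W, hWd, hW⟩ := exists_ts_of_lt hQ hd hmd
        exact ⟨W, ⟨hWd, hW⟩, fun w hw => hw⟩
      · exact H T hT hTr h1
    rcases Nat.even_or_odd i with he | ho
    · right
      rw [if_pos he] at hc
      replace hc := hc.symm
      subst hc
      have hi2 : 2 ≤ i := by obtain ⟨j, hj⟩ := he; omega
      refine ⟨he, him, arith_nec_minus hi2 he him hmd fun A hA hadm => ?_⟩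
      obtain ⟨T, hTO, hTr, hT1, hTd, hTW⟩ := exists_sharp (Q := Q) (r := r) (A := A) h2 hr (by rw [← hi]; exact he) hQ
        hA (by
          left
          rw [← hi, hd]
          refine ⟨⟨d, by omega⟩, ?_⟩
          rcases hadm with h | ⟨h, h'⟩
          · exact Or.inl h
          · exact Or.inr ⟨h, iff_of_false hP (Nat.not_even_iff_odd.2 h')⟩)
      rw [← hi] at hTd hTW
      obtain ⟨W, hW, hWT⟩ := H T hTO hTr hT1
      obtain ⟨b, hb, W₀, hW₀, hW₀s, hWd⟩ := hTW W hWT hW.2
      refine ⟨b, finrank F W₀, hb, by rw [← hWd, hW.1], ?_⟩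
      have hf := hfix T hTO hTr
      have hfd := finrank_fixS_add_comS T
      rw [hd, hTd] at hfd
      rcases Nat.even_or_odd A with hAe | hAo
      · have hfe : Even (finrank F (fixS T)) := by
          obtain ⟨j, hj⟩ := he
          have : i * A = 2 * (j * A) := by rw [hj]; ring
          exact ⟨d - j * A, by omega⟩
        have hfp := isPlus_fx_iff (x := (T : Module.End F V)) h2 hQ hev (fun v => hTO v) hr (coe_pow_eq_one hTr)
          hi.symm he (by rw [cm_coe]; exact hTd)
        rw [fx_coe] at hfp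
        have h3 := ts_lt_half hf hW₀ hW₀s hfe (fun h => hP ((hfp.1 h).2 hAe))
        obtain ⟨k, hk⟩ := hAe
        omega
      · have h3 := ts_le_half hf hW₀ hW₀s
        obtain ⟨k, hk⟩ := hAo
        omega
    · left
      rw [if_neg (Nat.not_even_iff_odd.2 ho)] at hc
      subst hc
      refine ⟨ho, him, ?_⟩
      have hdi : 1 ≤ (d - 1) / i := by rw [Nat.le_div_iff_mul_le hi0]; omega
      have hdm := Nat.div_add_mod (d - 1) i
      have hdm' := Nat.div_add_mod d i
      obtain ⟨T, hTO, hTr, hT1, hTd, hTW⟩ := exists_sharp_odd (Q := Q) (r := r) (A := (d - 1) / i) h2 hr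
        (by rw [← hi]; exact ho) hQ hdi (by
          left
          rw [← hi, hd]
          exact ⟨⟨d, by omega⟩, Or.inl (by omega)⟩)
      rw [← hi] at hTd hTW
      obtain ⟨W, hW, hWT⟩ := H T hTO hTr hT1
      obtain ⟨b, W₀, hW₀, hW₀s, hWd⟩ := hTW W hWT hW.2
      have hx := coe_pow_eq_one hTr
      have hxQ : ∀ v, Q ((T : Module.End F V) v) = Q v := fun v => hTO v
      have hf := hfix T hTO hTr
      have hfd := finrank_fixS_add_comS T
      rw [hd, hTd] at hfd
      have hfe : Even (finrank F (fixS T)) := ⟨d - i * ((d - 1) / i), by omega⟩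
      have hfp : ¬ IsPlus (res Q (fixS T)) := by
        obtain ⟨A, hA, hAP, -⟩ := exists_inv_ts_of_odd (x := (T : Module.End F V)) h2 hr (by rw [← hi]; exact ho)
          hQ hxQ hx
        rw [cm_coe] at hA hAP
        have h3 := isPlus_iff_perp hQ (nondeg_comS hQ hTO hr hTr) hev (by rw [hA]; exact even_two_mul _)
        rw [perp_comS hQ hTO] at h3
        exact fun h => hP (h3.2 ⟨fun _ => h, fun _ => hAP⟩)
      have h3 := ts_lt_half hf hW₀ hW₀s hfe hfp
      rw [hW.1] at hWd
      have h4 : finrank F W₀ < i := by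
        have := Nat.mod_lt (d - 1) hi0
        omega
      have h5 : m % i = finrank F W₀ := by
        rw [hWd, Nat.mul_add_mod, Nat.mod_eq_of_lt h4]
      rw [Nat.mul_mod_mul_left, h5]
      rcases Nat.eq_zero_or_pos (d % i) with h6 | h6
      · left; omega
      · right
        have h7 : (d - 1) % i = d % i - 1 := by
          have h8 : d - 1 = i * (d / i) + (d % i - 1) := by omega
          rw [h8, Nat.mul_add_mod, Nat.mod_eq_of_lt (by have := Nat.mod_lt d hi0; omega)]
        omega
  · intro hcrit T hTO hTr hT1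
    have hx := coe_pow_eq_one hTr
    have hxQ : ∀ v, Q ((T : Module.End F V) v) = Q v := fun v => hTO v
    have hf := hfix T hTO hTr
    have hfd := finrank_fixS_add_comS T
    rcases Nat.even_or_odd i with he | ho
    · have hcr := hcrit.resolve_left (fun h => (Nat.not_even_iff_odd.2 h.1) he)
      rw [if_pos he] at hc
      replace hc := hc.symm
      subst hc
      obtain ⟨-, him, hcr⟩ := hcr
      have hi2 : 2 ≤ i := by obtain ⟨j, hj⟩ := he; omega
      obtain ⟨A, hA⟩ := H951.ord_dvd_finrank hx H951.inv_cm (H951.inf_fx_of_le_cm hr hx le_rfl)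
      rw [← hi] at hA
      have hA' : finrank F (comS T) = i * A := by rw [← cm_coe]; exact hA
      rw [hd, hA'] at hfd
      have hfe : Even (finrank F (fixS T)) := by
        obtain ⟨j, hj⟩ := he
        have : i * A = 2 * (j * A) := by rw [hj]; ring
        exact ⟨d - j * A, by omega⟩
      have hfp := isPlus_fx_iff (x := (T : Module.End F V)) h2 hQ hev hxQ hr hx
        hi.symm he hA
      rw [fx_coe] at hfp
      obtain ⟨b, w, hb, hmw, hw⟩ := arith_suff_minus (t := (r - 1) / i) (m := m) (A := A) hi2 he hcr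
        (by omega) (fun h => by
          have h0 : finrank F (fixS T) = 0 := by omega
          rw [← Nat.not_even_iff_odd]
          exact fun hAe => hP ((hfp.1 (isPlus_of_finrank_zero h0)).2 hAe))
      obtain ⟨W₀, hW₀, hW₀s, hW₀p, hW₀d⟩ := exists_ts_type hf hfe
      have hwle : w ≤ finrank F W₀ := by
        rcases Nat.even_or_odd A with hAe | hAo
        · obtain ⟨k, hk⟩ := hAe
          omega
        · have := hW₀p (hfp.2 (iff_of_false hP (Nat.not_even_iff_odd.2 hAo)))
          obtain ⟨k, hk⟩ := hAo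
          omega
      obtain ⟨W, hWd, hWs, hWi⟩ := exists_inv_ts_of_even (x := (T : Module.End F V)) (m := m) (b := b) h2 hr hQ hxQ hx
        (by rw [← hi]; exact hA) (by rw [fx_coe]; exact hW₀) hW₀s (by rw [← hi]; exact hb) hwle
        (by rw [← hi]; exact hmw)
      exact ⟨W, ⟨hWd, hWs⟩, hWi⟩
    · have hcr := hcrit.resolve_right (fun h => (Nat.not_even_iff_odd.2 ho) h.1)
      rw [if_neg (Nat.not_even_iff_odd.2 ho)] at hc
      subst hc
      obtain ⟨-, him, hcr⟩ := hcr
      rw [Nat.mul_mod_mul_left] at hcr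
      obtain ⟨A, hA, hAP, hW⟩ := exists_inv_ts_of_odd (x := (T : Module.End F V)) h2 hr (by rw [← hi]; exact ho)
        hQ hxQ hx
      rw [← hi] at hA hW
      rw [cm_coe] at hA hAP
      rw [hd, hA] at hfd
      have hfe : Even (finrank F (fixS T)) := ⟨d - i * A, by omega⟩
      obtain ⟨W₀, hW₀, hW₀s, -, hW₀d⟩ := exists_ts_type hf hfe
      have hfp : ¬ IsPlus (res Q (fixS T)) := by
        have h3 := isPlus_iff_perp hQ (nondeg_comS hQ hTO hr hTr) hev ⟨i * A, by omega⟩
        rw [perp_comS hQ hTO] at h3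
        exact fun h => hP (h3.2 ⟨fun _ => h, fun _ => hAP⟩)
      have hfpos : finrank F (fixS T) ≠ 0 := fun h => hfp (isPlus_of_finrank_zero h)
      have hdm := Nat.div_add_mod (d - 1) i
      have hdm' := Nat.div_add_mod d i
      have hmm := Nat.div_add_mod m i
      have hml := Nat.mod_lt m hi0
      have hAd : A ≤ (d - 1) / i := by rw [Nat.le_div_iff_mul_le hi0, mul_comm]; omega
      have hmod : m % i ≤ (d - 1) % i := by
        rcases Nat.eq_zero_or_pos (d % i) with h6 | h6
        · have hdi : 1 ≤ d / i := by rw [Nat.le_div_iff_mul_le hi0]; omega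
          have h7 : (d - 1) % i = i - 1 := by
            have h8 : d - 1 = i * (d / i - 1) + (i - 1) := by
              have h9 : i * (d / i) = i * (d / i - 1) + i := by
                rw [← Nat.mul_succ]; congr 1; omega
              omega
            rw [h8, Nat.mul_add_mod, Nat.mod_eq_of_lt (by omega)]
          omega
        · have h7 : (d - 1) % i = d % i - 1 := by
            have h8 : d - 1 = i * (d / i) + (d % i - 1) := by omega
            rw [h8, Nat.mul_add_mod, Nat.mod_eq_of_lt (by have := Nat.mod_lt d hi0; omega)]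
          omega
      obtain ⟨b, w, hb, hmw, hw⟩ : ∃ b w, b ≤ A ∧ m = i * b + w ∧ w ≤ finrank F W₀ := by
        by_cases h : m / i ≤ A
        · refine ⟨m / i, m % i, h, hmm.symm, ?_⟩
          have : i * A ≤ i * ((d - 1) / i) := Nat.mul_le_mul_left i hAd
          omega
        · push Not at h
          have : i * A ≤ i * (m / i) := Nat.mul_le_mul_left i h.le
          exact ⟨A, m - i * A, le_rfl, by omega, by omega⟩
      obtain ⟨W, hWd, hWs, hWi⟩ := hW (by rw [fx_coe]; exact hW₀) hW₀s hb hw hmw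
      exact ⟨W, ⟨hWd, hWs⟩, hWi⟩

end Cfsg.Agent.H957.TSMinus
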