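import Cfsg.Agent.H957.TwE6Sys
import Cfsg.Agent.H957.OrdSub

/-!
# S5714 [X6]: the data for the small order estimate for `²E₆(q)`
-/

set_option autoImplicit false

namespace Cfsg.Agent.H957.TwE6Lrg

open Cfsg.Lie Cfsg.Agent.ChevalleyStructure Cfsg.Agent.ChevalleyStructure.TwE6Basic
open Cfsg.Agent.H141.Rg Cfsg.Agent.H447.Rg

theorem ok_E6 : okD chevE6 = true := ok_all _ (by simp)

/-- **[X6], second part** -/
theorem ord_te6 : ∃ c0 D0 : ℝ, 0 < c0 ∧ ∀ (F : Type) [Field F] [Fintype F] (q : ℕ), Fintype.card F = q ^ 2 →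
    OrdData ↥(twistedE6 F q) q c0 D0 := by
  refine ⟨1 / 248, 2, by norm_num, fun F _ _ q hF => ?_⟩
  have hq : IsPrimePow q := by
    have := FiniteField.isPrimePow_card F
    rw [hF] at this
    exact (isPrimePow_pow_iff two_ne_zero).1 this
  obtain ⟨φ, hφ, hqq⟩ := exists_frob hq hF
  have hfin : Finite F := inferInstance
  have h1 : Nat.card (K0 φ) = q := by
    have h1 : Nat.card (K0 φ) = Nat.card {t : F // t ^ q = t} :=
      Nat.card_congr (Equiv.subtypeEquivRight fun t => by rw [← hφ t]; exact Iff.rfl)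
    rw [h1]
    exact FixedCard.card_fixed hq.one_lt hF
  have e71 : ∀ t ∈ K0 φ, x 71 t ∈ twistedE6 F q := fun t ht => by
    have := x_mem_G hφ hqq 23 ht
    rwa [f_base.2.1] at this
  have e0 : x 0 (1 : F) ∈ twistedE6 F q := by
    have := x_mem_G hφ hqq 0 (one_mem (K0 φ))
    rwa [f_base.2.2] at this
  exact OrdSub.ord_sub hE6 ok_E6 F (twistedE6 F q) (K0 φ) (fun t => (t : F)) Subtype.val_injective
    (fun s => e71 s s.2) e0 h1 hq.one_lt.le

end Cfsg.Agent.H957.TwE6Lrg
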