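import Cfsg.Agent.H954.TSing5
import Cfsg.Agent.H954.TSing4

/-!
# Isometries with `x ^ 2 = 1` or `x ^ 2 = -1`, odd characteristic

`Q` a nondegenerate quadratic form over a finite field of odd characteristic.

* `exists_ts_invol` : `T ^ 2 = 1`: invariant totally singular subspaces;
* `exists_ts_neg` : `T ^ 2 = -1`: invariant totally singular subspaces;
* `even_finrank_of_sq_neg` : invariant subspaces have even dimension if `-1` is not a square;
* `exists_sq_neg` : existence of `T` for `dim V = 2 d` and (plus type iff `d` even), `-1` not a square;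
* `card_quadric`: for `-1`, `2` nonsquares, `T ^ 2 = -1`: the number of solutions of `Q v = c`.
-/

set_option autoImplicit false

namespace Cfsg.Agent.H957.TwoNeg

open Module QuadraticMap Cfsg.Agent.LieClassical.OrthCore Cfsg.Agent.H955 Cfsg.Agent.H954.TSing

universe u v w

variable {F : Type u} [Field F]
  {V : Type v} [AddCommGroup V] [Module F V] {Q : QuadraticForm F V}

/-- `Q v = 0` on a one-dimensional space etc.: polar identity for `T ^ 2 = -1`. -/
theorem polar_self_sq_neg (h2 : (2 : F) ≠ 0) {T : V ≃ₗ[F] V} (hT : T ∈ O Q) (hTT : ∀ v, T (T v) = -v) (v : V) :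
    polar Q v (T v) = 0 := by
  have h1 : polar Q (T v) (T (T v)) = polar Q v (T v) := by
    simp only [polar, ← map_add]
    rw [hT (v + T v), hT (T v), hT v]
  rw [hTT, polar_neg_right, polar_comm] at h1
  have h3 : 2 * polar Q v (T v) = 0 := by linear_combination -h1
  exact (mul_eq_zero.1 h3).resolve_left h2

theorem polar_sq_neg {T : V ≃ₗ[F] V} (hT : T ∈ O Q) (hTT : ∀ v, T (T v) = -v) (u v : V) :
    polar Q u (T v) = - polar Q (T u) v := by
  have h1 : polar Q (T u) (T (T v)) = polar Q u (T v) := by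
    simp only [polar, ← map_add]
    rw [hT, hT, hT]
  rw [hTT, polar_neg_right] at h1
  exact h1.symm

/-- **`T ^ 2 = -1`**: maximal invariant totally singular subspaces. -/
theorem exists_ts_neg [Finite F] [FiniteDimensional F V] (h2 : (2 : F) ≠ 0) (hQn : Nondeg Q) {T : V ≃ₗ[F] V}
    (hT : T ∈ O Q) (hTT : ∀ v, T (T v) = -v) :
    ∃ W : Submodule F V, (∀ w ∈ W, T w ∈ W) ∧ (∀ w ∈ W, Q w = 0) ∧ finrank F V ≤ 2 * finrank F W + 2 := by
  have h4 : ((4 : ℕ) : F) ≠ 0 := by
    have : ((4 : ℕ) : F) = 2 * 2 := by norm_num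
    rw [this]; exact mul_ne_zero h2 h2
  have hx4 : (T : Module.End F V) ^ 4 = 1 := by
    ext v
    simp only [pow_succ, pow_zero, one_mul, Module.End.mul_apply, LinearEquiv.coe_coe, hTT, map_neg, neg_neg,
      Module.End.one_apply]
  obtain ⟨W, -, hW, hWs, M, -, hM, -, -, hd, hmax⟩ := exists_max (Q := Q) (x := (T : Module.End F V)) (r := 4)
    (fun v => hT v) h4 (by norm_num) hx4 (U := ⊤) (fun w _ => trivial)
    (nondeg_of_equiv (Submodule.topEquiv (R := F) (M := V)).symm (fun v => rfl) hQn)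
  rw [finrank_top] at hd
  refine ⟨W, hW, hWs, ?_⟩
  by_contra hcon
  obtain ⟨v, hv0, hv⟩ := exists_singular (res Q M) (by omega)
  have hvQ : Q (v : V) = 0 := hv
  have h3 : Submodule.span F {(v : V), T (v : V)} = ⊥ := by
    apply hmax
    · rw [Submodule.span_le]
      rintro w (rfl | rfl)
      · exact v.2
      · exact hM _ v.2
    · intro w hw
      obtain ⟨a, b, rfl⟩ := Submodule.mem_span_pair.1 hw
      show T (a • (v : V) + b • T (v : V)) ∈ _
      rw [map_add, map_smul, map_smul, hTT]
      exact Submodule.mem_span_pair.2 ⟨-b, a, by rw [smul_neg, neg_smul, add_comm]⟩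
    · intro w hw
      obtain ⟨a, b, rfl⟩ := Submodule.mem_span_pair.1 hw
      rw [Q_add, QuadraticMap.map_smul, QuadraticMap.map_smul, hT, hvQ, polar_smul_left, polar_smul_right,
        polar_self_sq_neg h2 hT hTT]
      simp
  apply hv0
  apply Subtype.ext
  have h5 : (v : V) ∈ Submodule.span F {(v : V), T (v : V)} := Submodule.subset_span (by simp)
  rw [h3] at h5
  exact (Submodule.mem_bot F).1 h5

/-- invariant subspaces of every even dimension. -/
theorem exists_inv_sub [FiniteDimensional F V] (hns : ¬ IsSquare (-1 : F)) {T : V ≃ₗ[F] V}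
    (hTT : ∀ v, T (T v) = -v) {W : Submodule F V} (hW : ∀ w ∈ W, T w ∈ W) (j : ℕ) (hj : 2 * j ≤ finrank F W) :
    ∃ U ≤ W, (∀ w ∈ U, T w ∈ U) ∧ finrank F U = 2 * j := by
  induction j with
  | zero => exact ⟨⊥, bot_le, fun w hw => by rw [(Submodule.mem_bot F).1 hw, map_zero]; exact Submodule.zero_mem _,
      by simp⟩
  | succ j ih =>
    obtain ⟨U, hUW, hU, hUd⟩ := ih (by omega)
    obtain ⟨w, hw, hwU⟩ : ∃ w ∈ W, w ∉ U := by
      by_contra hcon
      push Not at hcon
      have := Submodule.finrank_mono (show W ≤ U from hcon)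
      omega
    -- independence modulo `U`
    have key : ∀ a b : F, a • w + b • T w ∈ U → a = 0 ∧ b = 0 := by
      intro a b hab
      have h1 : T (a • w + b • T w) ∈ U := hU _ hab
      rw [map_add, map_smul, map_smul, hTT] at h1
      have h3 : (a * a + b * b) • w ∈ U := by
        have := U.sub_mem (U.smul_mem a hab) (U.smul_mem b h1)
        convert this using 1
        simp only [smul_add, smul_smul, smul_neg, add_smul, mul_comm b a]
        abel
      by_cases h0 : a * a + b * b = 0
      · by_cases hb : b = 0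
        · subst hb
          exact ⟨by simpa using h0, rfl⟩
        · exfalso
          apply hns
          refine ⟨a * b⁻¹, ?_⟩
          field_simp
          linear_combination -h0
      · exfalso
        apply hwU
        have := U.smul_mem (a * a + b * b)⁻¹ h3
        rwa [smul_smul, inv_mul_cancel₀ h0, one_smul] at this
    have hli : LinearIndependent F ![w, T w] := by
      rw [LinearIndependent.pair_iff]
      intro a b hab
      exact key a b (by rw [hab]; exact U.zero_mem)
    have hfr : finrank F (Submodule.span F {w, T w}) = 2 := by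
      have h5 := finrank_span_eq_card hli
      rwa [Matrix.range_cons_cons_empty, Fintype.card_fin] at h5
    have hinf : U ⊓ Submodule.span F {w, T w} = ⊥ := by
      rw [eq_bot_iff]
      rintro v ⟨hv, hv'⟩
      obtain ⟨a, b, rfl⟩ := Submodule.mem_span_pair.1 hv'
      obtain ⟨ha, hb⟩ := key a b hv
      rw [ha, hb]; simp
    refine ⟨U ⊔ Submodule.span F {w, T w}, ?_, ?_, ?_⟩
    · refine sup_le hUW ?_
      rw [Submodule.span_le]
      rintro v (rfl | rfl)
      · exact hw
      · exact hW _ hw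
    · intro v hv
      obtain ⟨u, hu, s, hs, rfl⟩ := Submodule.mem_sup.1 hv
      obtain ⟨a, b, rfl⟩ := Submodule.mem_span_pair.1 hs
      rw [map_add, map_add, map_smul, map_smul, hTT]
      refine Submodule.add_mem_sup (hU u hu) (Submodule.mem_span_pair.2 ⟨-b, a, ?_⟩)
      rw [smul_neg, neg_smul, add_comm]
    · have h5 := Submodule.finrank_sup_add_finrank_inf_eq U (Submodule.span F {w, T w})
      rw [hinf, finrank_bot, hUd, hfr] at h5
      omega

/-- invariant subspaces have even dimension. -/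
theorem even_finrank_of_sq_neg [FiniteDimensional F V] (hns : ¬ IsSquare (-1 : F)) {T : V ≃ₗ[F] V}
    (hTT : ∀ v, T (T v) = -v) {W : Submodule F V} (hW : ∀ w ∈ W, T w ∈ W) : Even (finrank F W) := by
  by_contra hodd
  rw [Nat.not_even_iff_odd] at hodd
  obtain ⟨j, hj⟩ := hodd
  apply hns
  let S : Module.End F W := (T : Module.End F V).restrict hW
  have hSS : S * S = (-1 : F) • 1 := by
    ext w
    show ((T (T (w : V)) : V)) = ((-1 : F) • (w : V))
    rw [hTT, neg_smul, one_smul]
  have h1 := congrArg LinearMap.det hSS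
  rw [map_mul, LinearMap.det_smul, map_one, mul_one, hj, (odd_two_mul_add_one j).neg_one_pow] at h1
  exact ⟨LinearMap.det S, h1.symm⟩

/-- the form `x ^ 2 + y ^ 2` -/
noncomputable abbrev sumSq (F : Type u) [Field F] : QuadraticForm F (F × F) :=
  osum (QuadraticMap.sq (R := F)) (QuadraticMap.sq (R := F))

theorem sumSq_apply (v : F × F) : sumSq F v = v.1 * v.1 + v.2 * v.2 := rfl

theorem sumSq_aniso (hns : ¬ IsSquare (-1 : F)) (v : F × F) (hv : sumSq F v = 0) : v = 0 := by
  rw [sumSq_apply] at hv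
  by_cases hb : v.2 = 0
  · rw [hb, mul_zero, add_zero, mul_self_eq_zero] at hv
    exact Prod.ext hv hb
  · exfalso
    apply hns
    refine ⟨v.1 * v.2⁻¹, ?_⟩
    field_simp
    linear_combination -hv

/-- **Existence of `T` with `T ^ 2 = -1`.** -/
theorem exists_sq_neg_model [Finite F] (hns : ¬ IsSquare (-1 : F)) (d : ℕ) :
    ∃ (X : Type u) (_ : AddCommGroup X) (_ : Module F X) (_ : FiniteDimensional F X) (R : QuadraticForm F X),
      Nondeg R ∧ finrank F X = 2 * d ∧ (IsPlus R ↔ Even d) ∧ ∃ T : X ≃ₗ[F] X, T ∈ O R ∧ ∀ v, T (T v) = -v := by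
  induction d with
  | zero =>
    have h0 : finrank F PUnit.{u + 1} = 0 := Module.finrank_zero_of_subsingleton
    refine ⟨PUnit, inferInstance, inferInstance, inferInstance, 0, ?_, ?_, ?_, 1, one_mem _, fun v => rfl⟩
    · intro x _; rfl
    · rw [h0]
    · exact iff_of_true (isPlus_of_finrank_zero h0) Even.zero
  | succ d ih =>
    obtain ⟨X, _, _, _, R, hR, hRd, hRp, T, hT, hTT⟩ := ih
    have hfr : finrank F (F × F) = 2 := by rw [Module.finrank_prod, Module.finrank_self]
    have hS : Nondeg (sumSq F) := nondeg_of_aniso hfr (sumSq_aniso hns)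
    have hSP : ¬ IsPlus (sumSq F) := not_isPlus_of_aniso (sumSq_aniso hns) (by rw [hfr]; norm_num)
    let rot : (F × F) ≃ₗ[F] (F × F) :=
      (LinearEquiv.prodComm F F F).trans ((LinearEquiv.neg F).prodCongr (LinearEquiv.refl F F))
    have hrot : ∀ v : F × F, rot v = (-v.2, v.1) := fun v => rfl
    refine ⟨X × (F × F), inferInstance, inferInstance, inferInstance, osum R (sumSq F), nondeg_osum hR hS, ?_, ?_,
      T.prodCongr rot, ?_, ?_⟩
    · rw [Module.finrank_prod, hRd, hfr]; ring
    · rw [isPlus_osum_iff hR hS ⟨d, by omega⟩ ⟨1, by omega⟩, hRp]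
      simp only [hSP, iff_false, Nat.even_add_one]
    · intro v
      show R (T v.1) + sumSq F (rot v.2) = R v.1 + sumSq F v.2
      rw [hT, hrot, sumSq_apply, sumSq_apply]
      ring
    · intro v
      show ((T (T v.1), rot (rot v.2)) : X × (F × F)) = -v
      rw [hTT, hrot, hrot]
      rfl

theorem exists_sq_neg [Finite F] [FiniteDimensional F V] (hns : ¬ IsSquare (-1 : F)) (hQ : Nondeg Q) {d : ℕ}
    (hd : finrank F V = 2 * d) (hP : IsPlus Q ↔ Even d) : ∃ T ∈ O Q, ∀ v, T (T v) = -v := by
  obtain ⟨X, _, _, _, R, hR, hRd, hRp, T, hT, hTT⟩ := exists_sq_neg_model (F := F) hns d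
  obtain ⟨e, he⟩ := exists_equiv_of_isPlus_iff hQ hR ⟨d, by omega⟩ (by rw [hd, hRd]) (hP.trans hRp.symm)
  refine ⟨(e.trans T).trans e.symm, fun v => ?_, fun v => ?_⟩
  · rw [LinearEquiv.trans_apply, LinearEquiv.trans_apply, ← he, LinearEquiv.apply_symm_apply, hT, he]
  · simp only [LinearEquiv.trans_apply, LinearEquiv.apply_symm_apply, hTT, map_neg, LinearEquiv.symm_apply_apply]

/-- If `T ^ 2 = -1` and `-1` is not a square, the type is determined by the dimension. -/
theorem isPlus_iff_of_sq_neg [Finite F] [FiniteDimensional F V] (h2 : (2 : F) ≠ 0) (hns : ¬ IsSquare (-1 : F))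
    (hQ : Nondeg Q) {d : ℕ} (hd : finrank F V = 2 * d) {T : V ≃ₗ[F] V} (hT : T ∈ O Q) (hTT : ∀ v, T (T v) = -v)
    (he : Even d) : IsPlus Q := by
  obtain ⟨W, hW, hWs, hWd⟩ := exists_ts_neg h2 hQ hT hTT
  obtain ⟨k, hk⟩ := even_finrank_of_sq_neg hns hTT hW
  obtain ⟨l, hl⟩ := he
  exact isPlus_of_le hQ hWs (by omega)

/-- If `T ^ 2 = -1` and `-1` is a square then the type is plus. -/
theorem isPlus_of_isSquare [Finite F] [FiniteDimensional F V] (h2 : (2 : F) ≠ 0) (hs : IsSquare (-1 : F))
    (hQ : Nondeg Q) {T : V ≃ₗ[F] V} (hT : T ∈ O Q) (hTT : ∀ v, T (T v) = -v) : IsPlus Q := by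
  obtain ⟨i, hi⟩ := hs
  have hi0 : i ≠ 0 := by
    rintro rfl
    rw [mul_zero] at hi
    exact (neg_ne_zero.2 one_ne_zero) hi
  -- eigenspaces
  have key : ∀ j : F, j * j = -1 → ∀ v : V, T v = j • v → Q v = 0 := by
    intro j hj v hv
    have h1 := hT v
    rw [hv, QuadraticMap.map_smul, smul_eq_mul, hj] at h1
    have h3 : 2 * Q v = 0 := by linear_combination -h1
    exact (mul_eq_zero.1 h3).resolve_left h2
  let E₁ : Submodule F V := LinearMap.ker ((T : Module.End F V) - i • (1 : Module.End F V))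
  let E₂ : Submodule F V := LinearMap.ker ((T : Module.End F V) - (-i) • (1 : Module.End F V))
  have hm₁ : ∀ v, v ∈ E₁ ↔ T v = i • v := fun v => by
    rw [LinearMap.mem_ker, LinearMap.sub_apply, sub_eq_zero]; rfl
  have hm₂ : ∀ v, v ∈ E₂ ↔ T v = (-i) • v := fun v => by
    rw [LinearMap.mem_ker, LinearMap.sub_apply, sub_eq_zero]; rfl
  have hsup : E₁ ⊔ E₂ = ⊤ := by
    rw [eq_top_iff]
    intro v _
    refine Submodule.mem_sup.2 ⟨(2⁻¹ : F) • (v - i • T v), ?_, (2⁻¹ : F) • (v + i • T v), ?_, ?_⟩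
    · have h6 : i • (2⁻¹ : F) • (v - i • T v) = (2⁻¹ : F) • (i • v - (i * i) • T v) := by module
      rw [hm₁, map_smul, map_sub, map_smul, hTT, h6, ← hi]
      module
    · have h6 : (-i) • (2⁻¹ : F) • (v + i • T v) = (2⁻¹ : F) • (-(i • v) - (i * i) • T v) := by module
      rw [hm₂, map_smul, map_add, map_smul, hTT, h6, ← hi]
      module
    · rw [← smul_add]
      have h3 : v - i • T v + (v + i • T v) = (2 : F) • v := by rw [two_smul]; abel
      rw [h3, smul_smul, inv_mul_cancel₀ h2, one_smul]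
  have h3 := Submodule.finrank_add_le_finrank_add_finrank E₁ E₂
  rw [hsup, finrank_top] at h3
  have h4 := two_mul_finrank_le hQ (U := E₁) (fun v hv => key i hi.symm v ((hm₁ v).1 hv))
  have h5 := two_mul_finrank_le hQ (U := E₂) (fun v hv => key (-i) (by rw [neg_mul_neg]; exact hi.symm) v
    ((hm₂ v).1 hv))
  exact isPlus_of_le hQ (U := E₁) (fun v hv => key i hi.symm v ((hm₁ v).1 hv)) (by omega)

end Cfsg.Agent.H957.TwoNeg
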