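import Cfsg.Agent.H957.TwoNeg
import Cfsg.Agent.H955.QElt
import Cfsg.Agent.ClassicalGeometry.OmegaIndex

/-!
# Isometries with `x ^ 2 = 1` or `x ^ 2 = -1`, odd characteristic, II

* `exists_ts_invol_minus` : involutions, minus type;
* `sign_of_free_four` : the sign of a permutation all of whose cycles have length 4;
* `card_quadric` : the number of solutions of `Q v = 1`;
* `not_mem_Omega` : an element `x` with `x ^ 2 = -1` is not in `Ω` if `q ≡ 3` mod 8, minus type.
-/

set_option autoImplicit false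

namespace Cfsg.Agent.H957.TwoNeg

open Module QuadraticMap Cfsg.Agent.LieClassical.OrthCore Cfsg.Agent.H955 Cfsg.Agent.H954.TSing

universe u v w

section Invol

variable {F : Type u} [Field F]
  {V : Type v} [AddCommGroup V] [Module F V] {Q : QuadraticForm F V}

/-- **involutions, minus type** -/
theorem exists_ts_invol_minus [Finite F] [FiniteDimensional F V] (h2 : (2 : F) ≠ 0) (hQ : Nondeg Q) {d m : ℕ}
    (hd : finrank F V = 2 * d) (hP : ¬ IsPlus Q) (hm : m + 1 ≤ d) {T : V ≃ₗ[F] V} (hT : T ∈ O Q)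
    (hTT : ∀ v, T (T v) = v) :
    ∃ W : Submodule F V, finrank F W = m ∧ (∀ w ∈ W, Q w = 0) ∧ ∀ w ∈ W, T w ∈ W := by
  have h2' : ((2 : ℕ) : F) ≠ 0 := by exact_mod_cast h2
  have hT2 : T ^ 2 = 1 := by
    ext v
    rw [pow_two]
    exact hTT v
  have hc := nondeg_comS hQ hT h2' hT2
  have hf : Nondeg (res Q (fixS T)) := by
    rw [← perp_comS hQ hT]; exact nondeg_perp hQ hc
  have hcompl := isCompl_fixS_comS h2' hT2
  have hfd := finrank_fixS_add_comS T
  rw [hd] at hfd
  have hev : Even (finrank F V) := ⟨d, by omega⟩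
  obtain ⟨W₁, W₂, h₁, h₂, hs₁, hs₂, hdim⟩ : ∃ W₁ W₂ : Submodule F V, W₁ ≤ fixS T ∧ W₂ ≤ comS T ∧
      (∀ w ∈ W₁, Q w = 0) ∧ (∀ w ∈ W₂, Q w = 0) ∧ d ≤ finrank F W₁ + finrank F W₂ + 1 := by
    rcases Nat.even_or_odd (finrank F (comS T)) with he | ho
    · have hfe : Even (finrank F (fixS T)) := by
        obtain ⟨k, hk⟩ := he
        exact ⟨d - k, by omega⟩
      obtain ⟨W₁, hW₁, hs₁, hp₁, hd₁⟩ := exists_ts_type hf hfe
      obtain ⟨W₂, hW₂, hs₂, hp₂, hd₂⟩ := exists_ts_type hc he
      refine ⟨W₁, W₂, hW₁, hW₂, hs₁, hs₂, ?_⟩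
      have h3 := isPlus_iff_perp hQ hc hev he
      rw [perp_comS hQ hT] at h3
      by_cases h4 : IsPlus (res Q (fixS T))
      · have := hp₁ h4
        omega
      · by_cases h5 : IsPlus (res Q (comS T))
        · have := hp₂ h5
          omega
        · exact absurd (h3.2 (iff_of_false h5 h4)) hP
    · have hfo : Odd (finrank F (fixS T)) := by
        obtain ⟨k, hk⟩ := ho
        exact ⟨d - k - 1, by omega⟩
      obtain ⟨W₁, hW₁, hs₁, hd₁⟩ := exists_ts_fix_odd hf hfo
      obtain ⟨W₂, hW₂, hs₂, hd₂⟩ := exists_ts_fix_odd hc ho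
      exact ⟨W₁, W₂, hW₁, hW₂, hs₁, hs₂, by omega⟩
  obtain ⟨m₁, m₂, hm₁, hm₂, hmm⟩ : ∃ m₁ m₂, m₁ ≤ finrank F W₁ ∧ m₂ ≤ finrank F W₂ ∧ m = m₁ + m₂ := by
    rcases le_total m (finrank F W₁) with h | h
    · exact ⟨m, 0, h, Nat.zero_le _, rfl⟩
    · exact ⟨finrank F W₁, m - finrank F W₁, le_rfl, by omega, by omega⟩
  obtain ⟨U₁, hU₁, hU₁d⟩ := H951.exists_sub W₁ (a := m₁) hm₁
  obtain ⟨U₂, hU₂, hU₂d⟩ := H951.exists_sub W₂ (a := m₂) hm₂
  have hT₁ : ∀ w ∈ U₁, T w = w := fun w hw => mem_fixS.1 (h₁ (hU₁ hw))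
  have hT₂ : ∀ w ∈ U₂, T w = -w := fun w hw => by
    obtain ⟨v, hv⟩ := mem_comS.1 (h₂ (hU₂ hw))
    rw [← hv, map_sub, hTT, neg_sub]
  refine ⟨U₁ ⊔ U₂, ?_, ?_, ?_⟩
  · have h5 := Submodule.finrank_sup_add_finrank_inf_eq U₁ U₂
    have h6 : U₁ ⊓ U₂ = ⊥ := by
      rw [eq_bot_iff, ← hcompl.inf_eq_bot]
      exact inf_le_inf (hU₁.trans h₁) (hU₂.trans h₂)
    rw [h6, finrank_bot, hU₁d, hU₂d] at h5
    omega
  · intro w hw
    obtain ⟨a, ha, b, hb, rfl⟩ := Submodule.mem_sup.1 hw
    have h7 : polar Q a b = 0 := by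
      have h8 : a ∈ perp Q (comS T) := by rw [perp_comS hQ hT]; exact h₁ (hU₁ ha)
      rw [polar_comm]
      exact h8 b (h₂ (hU₂ hb))
    rw [Q_add, hs₁ a (hU₁ ha), hs₂ b (hU₂ hb), h7]
    simp
  · intro w hw
    obtain ⟨a, ha, b, hb, rfl⟩ := Submodule.mem_sup.1 hw
    rw [map_add, hT₁ a ha, hT₂ b hb]
    exact Submodule.add_mem_sup ha (U₂.neg_mem hb)

end Invol

/-! ### signs -/

open Equiv Equiv.Perm in
/-- all cycles of length 4 -/
theorem sign_of_free_four {α : Type*} [Fintype α] [DecidableEq α] (σ : Equiv.Perm α)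
    (h4 : ∀ x, σ (σ (σ (σ x))) = x) (h2 : ∀ x, σ (σ x) ≠ x) :
    4 ∣ Fintype.card α ∧ Equiv.Perm.sign σ = (-1) ^ (Fintype.card α / 4) := by
  have hσ4 : σ ^ 4 = 1 := by
    ext x
    simp only [pow_succ, pow_zero, one_mul, Equiv.Perm.mul_apply, Equiv.Perm.one_apply]
    rw [h4]
  have hall : ∀ n ∈ σ.cycleType, n = 4 := by
    intro n hn
    have h1 : n ∣ 4 := (dvd_of_mem_cycleType hn).trans (orderOf_dvd_of_pow_eq_one hσ4)
    have h3 := two_le_of_mem_cycleType hn
    have h5 : n ≤ 4 := Nat.le_of_dvd (by norm_num) h1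
    have h6 : n ≠ 3 := by rintro rfl; omega
    have h7 : n ≠ 2 := by
      rintro rfl
      obtain ⟨c, τ, hcτ, hd, hc, hc2⟩ := mem_cycleType_iff.1 hn
      have ho : orderOf c = 2 := by rw [hc.orderOf, hc2]
      obtain ⟨x, hx, -⟩ := hc
      have hx' : x ∈ c.support := mem_support.2 hx
      have hτx : ∀ y, y ∈ c.support → τ y = y := fun y hy => by
        rcases hd y with h | h
        · exact absurd h (mem_support.1 hy)
        · exact h
      have h8 : c (c x) = x := by
        have := congrArg (fun f : Equiv.Perm α => f x) (pow_orderOf_eq_one c)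
        rw [ho, pow_two] at this
        exact this
      apply h2 x
      have hcx : c x ∈ c.support := apply_mem_support.2 hx'
      rw [hcτ, Equiv.Perm.mul_apply, Equiv.Perm.mul_apply, hτx x hx', hτx (c x) hcx, h8]
    omega
  have hrep : σ.cycleType = Multiset.replicate σ.cycleType.card 4 := Multiset.eq_replicate_of_mem hall
  have hfix : Fintype.card (Function.fixedPoints σ) = 0 := by
    rw [Fintype.card_eq_zero_iff]
    refine ⟨fun x => ?_⟩
    have hx : σ x.1 = x.1 := x.2
    exact h2 x.1 (by rw [hx, hx])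
  constructor
  · have h1 := card_fixedPoints σ
    have h3 := sum_cycleType_le σ
    rw [hfix] at h1
    have h5 : σ.cycleType.sum = σ.cycleType.card * 4 := by
      conv_lhs => rw [hrep]
      rw [Multiset.sum_replicate, smul_eq_mul]
    exact ⟨σ.cycleType.card, by omega⟩
  · rw [sign_of_cycleType_eq_replicate (by norm_num) hrep, if_neg (by decide), hfix, Nat.sub_zero]

/-! ### the number of solutions -/

section Count

variable {F : Type u} [Field F] [Fintype F]
  {V : Type v} [AddCommGroup V] [Module F V] [FiniteDimensional F V] {Q : QuadraticForm F V}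

omit [FiniteDimensional F V] [AddCommGroup V] [Module F V] in
theorem isSquare_mul_of_not {a b : F} (ha : ¬ IsSquare a) (hb : ¬ IsSquare b) : IsSquare (a * b) := by
  classical
  have ha0 : a ≠ 0 := by rintro rfl; exact ha ⟨0, by simp⟩
  have hb0 : b ≠ 0 := by rintro rfl; exact hb ⟨0, by simp⟩
  have h1 : quadraticChar F (a * b) = 1 := by
    rw [map_mul, quadraticChar_neg_one_iff_not_isSquare.2 ha, quadraticChar_neg_one_iff_not_isSquare.2 hb]
    norm_num
  exact (quadraticChar_one_iff_isSquare (mul_ne_zero ha0 hb0)).1 h1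

omit [Fintype F] [FiniteDimensional F V] in
/-- the anti-isometry `(1 + T) / √-2` -/
theorem Q_one_add (h2 : (2 : F) ≠ 0) {T : V ≃ₗ[F] V} (hT : T ∈ O Q) (hTT : ∀ v, T (T v) = -v) (v : V) :
    Q (v + T v) = 2 * Q v := by
  rw [Q_add, hT, polar_self_sq_neg h2 hT hTT]
  ring

/-- **the number of solutions of `Q v = 1`**, minus type. -/
theorem card_quadric (h2 : (2 : F) ≠ 0) (hns : ¬ IsSquare (-1 : F)) (hns2 : ¬ IsSquare (2 : F)) (hQ : Nondeg Q) {d : ℕ}
    (hd0 : 1 ≤ d) (hd : finrank F V = 2 * d) (hP : ¬ IsPlus Q) {T : V ≃ₗ[F] V} (hT : T ∈ O Q)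
    (hTT : ∀ v, T (T v) = -v) :
    Nat.card {v : V // Q v = 1} = Fintype.card F ^ (d - 1) * (Fintype.card F ^ d + 1) := by
  classical
  have hfinV : Finite V := Module.finite_of_finite F
  -- `-2` is a square
  obtain ⟨s, hs⟩ : IsSquare (-2 : F) := by
    have h3 := isSquare_mul_of_not hns hns2
    rwa [neg_one_mul] at h3
  have hs0 : s ≠ 0 := by
    rintro rfl
    rw [mul_zero, neg_eq_zero] at hs
    exact h2 hs
  -- the anti-isometry
  have hz : ∀ v, Q (s⁻¹ • (v + T v)) = - Q v := by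
    intro v
    rw [QuadraticMap.map_smul, Q_one_add h2 hT hTT, smul_eq_mul]
    field_simp
    linear_combination (-Q v) * hs
  have hzinj : Function.Injective fun v : V => s⁻¹ • (v + T v) := by
    intro a b hab
    have h1 : a + T a = b + T b := by
      have := congrArg (fun v => s • v) hab
      simpa only [smul_smul, mul_inv_cancel₀ hs0, one_smul] using this
    have h3 : (2 : F) • a = (2 : F) • b := by
      have h4 := congrArg T h1
      rw [map_add, map_add, hTT, hTT] at h4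
      have h5 : (2 : F) • a = (a + T a) - (T a + -a) := by rw [two_smul]; abel
      have h6 : (2 : F) • b = (b + T b) - (T b + -b) := by rw [two_smul]; abel
      rw [h5, h6, h1, h4]
    have h7 := congrArg (fun v => (2⁻¹ : F) • v) h3
    simpa only [smul_smul, inv_mul_cancel₀ h2, one_smul] using h7
  have hle : ∀ c : F, Nat.card {v : V // Q v = c} ≤ Nat.card {v : V // Q v = -c} := by
    intro c
    refine Nat.card_le_card_of_injective (fun v => ⟨s⁻¹ • (v.1 + T v.1), by rw [hz, v.2]⟩) ?_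
    intro a b hab
    exact Subtype.ext (hzinj (congrArg Subtype.val hab))
  have hneg : ∀ c : F, Nat.card {v : V // Q v = -c} = Nat.card {v : V // Q v = c} := by
    intro c
    apply le_antisymm _ (hle c)
    have := hle (-c)
    rwa [neg_neg] at this
  have hsq : ∀ t : F, t ≠ 0 → Nat.card {v : V // Q v = t * t} = Nat.card {v : V // Q v = 1} := by
    intro t ht
    refine Nat.card_congr
      { toFun := fun v => ⟨t⁻¹ • v.1, by rw [QuadraticMap.map_smul, v.2, smul_eq_mul]; field_simp⟩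
        invFun := fun v => ⟨t • v.1, by rw [QuadraticMap.map_smul, v.2, smul_eq_mul, mul_one]⟩
        left_inv := fun v => Subtype.ext (by simp [smul_smul, ht])
        right_inv := fun v => Subtype.ext (by simp [smul_smul, ht]) }
  have hall : ∀ c : F, c ≠ 0 → Nat.card {v : V // Q v = c} = Nat.card {v : V // Q v = 1} := by
    intro c hc
    by_cases h : IsSquare c
    · obtain ⟨t, rfl⟩ := h
      exact hsq t (fun h => hc (by rw [h, mul_zero]))
    · have h3 : IsSquare (-c) := by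
        have h3 := isSquare_mul_of_not hns h
        rwa [neg_one_mul] at h3
      obtain ⟨t, ht⟩ := h3
      rw [← hneg, ht]
      exact hsq t (fun h => hc (by rw [h, mul_zero, neg_eq_zero] at ht; exact ht))
  have htot : Nat.card V = Nat.card {v : V // Q v = 0} + (Fintype.card F - 1) * Nat.card {v : V // Q v = 1} := by
    rw [← Nat.card_congr (Equiv.sigmaFiberEquiv (fun v : V => Q v)), Nat.card_sigma,
      ← Finset.add_sum_erase _ _ (Finset.mem_univ (0 : F))]
    congr 1
    rw [Finset.sum_congr rfl (g := fun _ => Nat.card {v : V // Q v = 1}), Finset.sum_const,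
      Finset.card_erase_of_mem (Finset.mem_univ _), Finset.card_univ, smul_eq_mul]
    intro c hc
    exact hall c (Finset.ne_of_mem_erase hc)
  have hV : Nat.card V = Fintype.card F ^ (2 * d) := by
    rw [Module.natCard_eq_pow_finrank (K := F) (V := V), hd, Nat.card_eq_fintype_card]
  rw [card_sing_minus hQ hd0 hd hP, hV] at htot
  have hq := Fintype.one_lt_card (α := F)
  set q := Fintype.card F with hqdef
  set N := Nat.card {v : V // Q v = 1} with hN
  obtain ⟨e, rfl⟩ : ∃ e, d = e + 1 := ⟨d - 1, by omega⟩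
  have e1 : 2 * (e + 1) - 1 = 2 * e + 1 := by omega
  rw [e1, Nat.add_sub_cancel] at htot
  rw [Nat.add_sub_cancel]
  have hle' : q ^ (e + 1) ≤ q ^ (2 * e + 1) + q ^ e := by
    have : q ^ (e + 1) ≤ q ^ (2 * e + 1) := Nat.pow_le_pow_right (by omega) (by omega)
    omega
  have hge : 1 ≤ q := by omega
  zify [hle', hge] at htot ⊢
  have h9 : ((q : ℤ) - 1) * (N : ℤ) = ((q : ℤ) - 1) * ((q : ℤ) ^ e * ((q : ℤ) ^ (e + 1) + 1)) := by
    have h10 : (q : ℤ) ^ (2 * (e + 1)) = (q : ℤ) * (q : ℤ) ^ (2 * e + 1) := by ring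
    have h11 : (q : ℤ) ^ (2 * e + 1) = (q : ℤ) ^ e * (q : ℤ) ^ (e + 1) := by ring
    have h12 : (q : ℤ) ^ (e + 1) = (q : ℤ) * (q : ℤ) ^ e := by ring
    rw [h10, h11] at htot
    linear_combination -htot + h12
  exact mul_left_cancel₀ (by have : (1 : ℤ) < q := by exact_mod_cast hq
                             omega) h9

end Count

end Cfsg.Agent.H957.TwoNeg
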